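import Mathlib

/-!
Numerics for the orders of groups of Lie type: the `p`-part and the bounds in terms of it.
-/

set_option autoImplicit false

namespace Cfsg.Agent.Lib.LieBound.Num

/-- The `p`-part of the order, from an order formula. -/
theorem core {G : Type*} [Group G] [Finite G] {p q f N B d A : ℕ} (hp : p.Prime) (hf : 1 ≤ f)
    (hq : q = p ^ f) (hd : 0 < d) (hcard : d * Nat.card G = q ^ N * A) (hpd : ¬ p ∣ d)
    (hpA : ¬ p ∣ A) (hA : A < q ^ B) :
    (Nat.card G).factorization p = f * N ∧ Nat.card G < q ^ (N + B) := by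
  have hq0 : 0 < q := by
    rw [hq]
    exact pow_pos hp.pos _
  have hA0 : A ≠ 0 := by
    rintro rfl
    exact hpA (dvd_zero p)
  have hG0 : Nat.card G ≠ 0 := Nat.card_pos.ne'
  constructor
  · have h1 := congrArg (fun n => n.factorization p) hcard
    rw [Nat.factorization_mul hd.ne' hG0, Nat.factorization_mul (pow_pos hq0 N).ne' hA0,
      Finsupp.add_apply, Finsupp.add_apply, Nat.factorization_eq_zero_of_not_dvd hpd,
      Nat.factorization_eq_zero_of_not_dvd hpA, zero_add, add_zero, hq, ← pow_mul,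
      Nat.factorization_pow, Finsupp.smul_apply, Nat.Prime.factorization_self hp] at h1
    simpa using h1
  · calc Nat.card G ≤ d * Nat.card G := Nat.le_mul_of_pos_left _ hd
      _ = q ^ N * A := hcard
      _ < q ^ N * q ^ B := Nat.mul_lt_mul_of_pos_left hA (pow_pos hq0 N)
      _ = q ^ (N + B) := (pow_add _ _ _).symm

/-- The two bounds. -/
theorem finish {G : Type*} [Group G] [Finite G] {p q f N B : ℕ} (hp : p.Prime)
    (hq : q = p ^ f) (hfac : (Nat.card G).factorization p = f * N)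
    (hlt : Nat.card G < q ^ (N + B)) (h1 : N + B ≤ 3 * N) :
    Nat.card G < p ^ (3 * (Nat.card G).factorization p) := by
  have hq0 : 0 < q := by
    rw [hq]
    exact pow_pos hp.pos _
  rw [hfac]
  have h3 : p ^ (3 * (f * N)) = q ^ (3 * N) := by
    rw [hq, ← pow_mul]
    congr 1
    ring
  rw [h3]
  exact lt_of_lt_of_le hlt (Nat.pow_le_pow_right hq0 h1)

theorem finish2 {G : Type*} [Group G] [Finite G] {p q f N B : ℕ} (hp : p.Prime)
    (hq : q = p ^ f) (hfac : (Nat.card G).factorization p = f * N)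
    (hlt : Nat.card G < q ^ (N + B)) (h2 : 3 * (N + B) ≤ 8 * N) :
    Nat.card G ^ 3 < p ^ (8 * (Nat.card G).factorization p) := by
  have hq0 : 0 < q := by
    rw [hq]
    exact pow_pos hp.pos _
  rw [hfac]
  have h3 : p ^ (8 * (f * N)) = q ^ (8 * N) := by
    rw [hq, ← pow_mul]
    congr 1
    ring
  rw [h3]
  calc Nat.card G ^ 3 < (q ^ (N + B)) ^ 3 := Nat.pow_lt_pow_left hlt (by norm_num)
    _ = q ^ (3 * (N + B)) := by rw [← pow_mul, mul_comm]
    _ ≤ q ^ (8 * N) := Nat.pow_le_pow_right hq0 h2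

/-- Both bounds at once. -/
theorem both {G : Type*} [Group G] [Finite G] {p q f N B d A : ℕ} (hp : p.Prime) (hf : 1 ≤ f)
    (hq : q = p ^ f) (hd : 0 < d) (hcard : d * Nat.card G = q ^ N * A) (hpd : ¬ p ∣ d)
    (hpA : ¬ p ∣ A) (hA : A < q ^ B) (h1 : N + B ≤ 3 * N) (h2 : 3 * (N + B) ≤ 8 * N) :
    Nat.card G < p ^ (3 * (Nat.card G).factorization p) ∧
      Nat.card G ^ 3 < p ^ (8 * (Nat.card G).factorization p) := by
  obtain ⟨h3, h4⟩ := core hp hf hq hd hcard hpd hpA hA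
  exact ⟨finish hp hq h3 h4 h1, finish2 hp hq h3 h4 h2⟩

section Coprime

variable {p q f : ℕ}

theorem nd_sub (hp : p.Prime) (hf : 1 ≤ f) (hq : q = p ^ f) {e : ℕ} (he : 1 ≤ e) : ¬ p ∣ q ^ e - 1 := by
  intro h
  have h1 : p ∣ q := by
    rw [hq]
    exact dvd_pow_self p (by omega)
  have h2 : p ∣ q ^ e := dvd_pow h1 (by omega)
  have h3 : 0 < q ^ e := pow_pos (by rw [hq]; exact pow_pos hp.pos _) _
  have h4 : p ∣ q ^ e - (q ^ e - 1) := Nat.dvd_sub h2 h
  have h5 : q ^ e - (q ^ e - 1) = 1 := by omega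
  rw [h5] at h4
  exact hp.one_lt.ne' (Nat.dvd_one.mp h4)

theorem nd_add (hp : p.Prime) (hf : 1 ≤ f) (hq : q = p ^ f) {e : ℕ} (he : 1 ≤ e) : ¬ p ∣ q ^ e + 1 := by
  intro h
  have h1 : p ∣ q := by
    rw [hq]
    exact dvd_pow_self p (by omega)
  have h2 : p ∣ q ^ e := dvd_pow h1 (by omega)
  have h4 := (Nat.dvd_add_right h2).1 h
  exact hp.one_lt.ne' (Nat.dvd_one.mp h4)

theorem nd_gcd_sub (hp : p.Prime) (hf : 1 ≤ f) (hq : q = p ^ f) (n e : ℕ) (he : 1 ≤ e) :
    ¬ p ∣ Nat.gcd n (q ^ e - 1) := fun h => nd_sub hp hf hq he (h.trans (Nat.gcd_dvd_right _ _))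

theorem nd_gcd_add (hp : p.Prime) (hf : 1 ≤ f) (hq : q = p ^ f) (n e : ℕ) (he : 1 ≤ e) :
    ¬ p ∣ Nat.gcd n (q ^ e + 1) := fun h => nd_add hp hf hq he (h.trans (Nat.gcd_dvd_right _ _))

theorem nd_prod (hp : p.Prime) (hf : 1 ≤ f) (hq : q = p ^ f) (g : ℕ → ℕ) (hg : ∀ j, 1 ≤ g j) (m : ℕ) :
    ¬ p ∣ ∏ j ∈ Finset.range m, (q ^ g j - 1) := by
  intro h
  obtain ⟨j, -, hj⟩ := (Prime.exists_mem_finset_dvd hp.prime h)
  exact nd_sub hp hf hq (hg j) hj

end Coprime

section Bounds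

variable {q : ℕ}

theorem sub_one_lt (hq : 2 ≤ q) (e : ℕ) : q ^ e - 1 < q ^ e := by
  have : 0 < q ^ e := pow_pos (by omega) _
  omega

theorem prod_lt (hq : 2 ≤ q) (g : ℕ → ℕ) (m : ℕ) (hm : 0 < m) :
    ∏ j ∈ Finset.range m, (q ^ g j - 1) < q ^ (∑ j ∈ Finset.range m, g j) := by
  induction m with
  | zero => omega
  | succ m ih =>
    rw [Finset.prod_range_succ, Finset.sum_range_succ, pow_add]
    rcases Nat.eq_zero_or_pos m with rfl | hm'
    · simpa using sub_one_lt hq (g 0)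
    · have h1 := ih hm'
      exact Nat.mul_lt_mul'' h1 (sub_one_lt hq _)

theorem prod_le (hq : 2 ≤ q) (g : ℕ → ℕ) (m : ℕ) :
    ∏ j ∈ Finset.range m, (q ^ g j - 1) ≤ q ^ (∑ j ∈ Finset.range m, g j) := by
  rcases Nat.eq_zero_or_pos m with rfl | hm
  · simp
  · exact (prod_lt hq g m hm).le

theorem sum_two_mul (m : ℕ) : ∑ i ∈ Finset.range m, 2 * (i + 1) = m * (m + 1) := by
  induction m with
  | zero => simp
  | succ m ih =>
    rw [Finset.sum_range_succ, ih]
    ring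

theorem sum_add_two (m : ℕ) : 2 * ∑ i ∈ Finset.range m, (i + 2) = m * (m + 3) := by
  induction m with
  | zero => simp
  | succ m ih =>
    rw [Finset.sum_range_succ, mul_add, ih]
    ring

end Bounds

end Cfsg.Agent.Lib.LieBound.Num
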