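import Mathlib
import Cfsg.Prelude.Def_LieTypeChar
import Cfsg.Agent.Lib.LieBound.Num

/-!
The bounds on the order of a group of Lie type, family by family, from the order formula written
as `d * |G| = q ^ N * A`.
-/

set_option autoImplicit false

namespace Cfsg.Agent.Lib.LieBound.Fam

open Cfsg.Agent.Lib.LieBound.Num

/-- The two bounds. -/
def Good (p : ℕ) (G : Type*) [Group G] : Prop :=
  Nat.card G < p ^ (3 * (Nat.card G).factorization p) ∧
    Nat.card G ^ 3 < p ^ (8 * (Nat.card G).factorization p)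

theorem card_pow {F : Type*} [Field F] [Fintype F] {p : ℕ} [CharP F p] :
    p.Prime ∧ ∃ f : ℕ, 1 ≤ f ∧ Fintype.card F = p ^ f := by
  obtain ⟨n, hp, hn⟩ := FiniteField.card F p
  exact ⟨hp, n, n.pos, hn⟩

theorem q_of_sq {p q e n : ℕ} (hp : p.Prime) (he : 1 ≤ e) (hn : 1 ≤ n) (h : p ^ e = q ^ n) :
    ∃ f : ℕ, 1 ≤ f ∧ q = p ^ f := by
  have h1 : q ∣ p ^ e := by
    rw [h]
    exact dvd_pow_self q (by omega)
  obtain ⟨f, -, hf⟩ := (Nat.dvd_prime_pow hp).1 h1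
  refine ⟨f, ?_, hf⟩
  rcases Nat.eq_zero_or_pos f with rfl | hf0
  · exfalso
    rw [hf, pow_zero, one_pow] at h
    have : 1 < p ^ e := Nat.one_lt_pow (by omega) hp.one_lt
    omega
  · exact hf0

theorem two_le {p q f : ℕ} (hp : p.Prime) (hf : 1 ≤ f) (hq : q = p ^ f) : 2 ≤ q := by
  rw [hq]
  exact le_trans hp.two_le (Nat.le_self_pow (by omega) p)

theorem nd_mul {p a b : ℕ} (hp : p.Prime) (ha : ¬ p ∣ a) (hb : ¬ p ∣ b) : ¬ p ∣ a * b := by
  intro h
  rcases (Nat.Prime.dvd_mul hp).1 h with h | h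
  · exact ha h
  · exact hb h

theorem mul_lt {q a b x y : ℕ} (ha : a < q ^ x) (hb : b < q ^ y) : a * b < q ^ (x + y) := by
  rw [pow_add]
  exact Nat.mul_lt_mul'' ha hb

/-- `q ^ e + 1 < q ^ (e + 1)`. -/
theorem add_one_lt {q e : ℕ} (hq : 2 ≤ q) (he : 1 ≤ e) : q ^ e + 1 < q ^ (e + 1) := by
  have h1 : 2 ≤ q ^ e := le_trans hq (Nat.le_self_pow (by omega) q)
  rw [pow_succ]
  nlinarith

/-- Pass along an isomorphism. -/
theorem good_of_equiv {p : ℕ} {G X : Type*} [Group G] [Group X] (e : G ≃* X) (h : Good p X) :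
    Good p G := by
  have h1 : Nat.card G = Nat.card X := Nat.card_congr e.toEquiv
  unfold Good
  rw [h1]
  exact h

/-! ### `PSL` -/

theorem psl_prod {q n : ℕ} (hq : 2 ≤ q) (hn : 1 ≤ n) :
    ∃ A, (∏ i : Fin n, (q ^ n - q ^ (i : ℕ))) = q ^ (n * (n - 1) / 2) * ((q - 1) * A) ∧
      A = ∏ j ∈ Finset.range (n - 1), (q ^ (j + 2) - 1) := by
  obtain ⟨m, rfl⟩ : ∃ m, n = m + 1 := ⟨n - 1, by omega⟩
  refine ⟨_, ?_, rfl⟩
  rw [Fin.prod_univ_eq_prod_range (fun i => q ^ (m + 1) - q ^ i) (m + 1)]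
  have h1 : ∀ i ∈ Finset.range (m + 1), q ^ (m + 1) - q ^ i = q ^ i * (q ^ (m - i + 1) - 1) := by
    intro i hi
    have hi' : i ≤ m := by simpa [Nat.lt_succ_iff] using hi
    rw [Nat.mul_sub, mul_one, ← pow_add]
    congr 2
    omega
  rw [Finset.prod_congr rfl h1, Finset.prod_mul_distrib, Finset.prod_pow_eq_pow_sum,
    Finset.sum_range_id]
  congr 1
  have h2 : ∏ x ∈ Finset.range (m + 1), (q ^ (m - x + 1) - 1) =
      ∏ x ∈ Finset.range (m + 1), (q ^ (x + 1) - 1) :=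
    Finset.prod_range_reflect (fun j => q ^ (j + 1) - 1) (m + 1)
  rw [h2, Finset.prod_range_succ', mul_comm, zero_add, pow_one, Nat.add_sub_cancel]

/-- The order of `PSL` with the factor `q - 1` cancelled. -/
theorem psl_formula {q d c A N : ℕ} (hq : 2 ≤ q)
    (h : d * ((q - 1) * c) = q ^ N * ((q - 1) * A)) : d * c = q ^ N * A := by
  have h0 : 0 < q - 1 := by omega
  apply Nat.eq_of_mul_eq_mul_left h0
  calc (q - 1) * (d * c) = d * ((q - 1) * c) := by ring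
    _ = q ^ N * ((q - 1) * A) := h
    _ = (q - 1) * (q ^ N * A) := by ring

theorem psl_arith {n : ℕ} (hn : 2 ≤ n) :
    n * (n - 1) / 2 + ∑ j ∈ Finset.range (n - 1), (j + 2) ≤ 3 * (n * (n - 1) / 2) := by
  obtain ⟨m, rfl⟩ : ∃ m, n = m + 1 := ⟨n - 1, by omega⟩
  have h1 := sum_add_two m
  have h2 : 2 * ((m + 1) * (m + 1 - 1) / 2) = (m + 1) * (m + 1 - 1) :=
    Nat.two_mul_div_two_of_even (Nat.even_mul_pred_self (m + 1))
  rw [Nat.add_sub_cancel] at h2 ⊢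
  have hm : 1 ≤ m := by omega
  nlinarith

theorem psl_arith' {n : ℕ} (hn : 3 ≤ n) :
    3 * (n * (n - 1) / 2 + ∑ j ∈ Finset.range (n - 1), (j + 2)) ≤ 8 * (n * (n - 1) / 2) := by
  obtain ⟨m, rfl⟩ : ∃ m, n = m + 1 := ⟨n - 1, by omega⟩
  have h1 := sum_add_two m
  have h2 : 2 * ((m + 1) * (m + 1 - 1) / 2) = (m + 1) * (m + 1 - 1) :=
    Nat.two_mul_div_two_of_even (Nat.even_mul_pred_self (m + 1))
  rw [Nat.add_sub_cancel] at h2 ⊢
  have hm : 2 ≤ m := by omega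
  nlinarith

/-! ### `PSU` -/

/-- The factors of the unitary order. -/
def hh (q i : ℕ) : ℕ := if Even i then q ^ (i + 1) + 1 else q ^ (i + 1) - 1

theorem hh_odd (q m : ℕ) : hh q (2 * m + 1) = q ^ (2 * m + 2) - 1 := by
  unfold hh
  rw [if_neg]
  intro h
  rcases h with ⟨t, ht⟩
  omega

theorem hh_even (q m : ℕ) : hh q (2 * m + 2) = q ^ (2 * m + 3) + 1 := by
  unfold hh
  rw [if_pos]
  exact ⟨m + 1, by omega⟩

/-- A pair of consecutive factors. -/
theorem pair_lt {q a : ℕ} (hq : 2 ≤ q) (ha : 1 ≤ a) :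
    (q ^ a - 1) * (q ^ (a + 1) + 1) < q ^ (a + (a + 1)) := by
  have h1 : 1 ≤ q ^ a := Nat.one_le_pow _ _ (by omega)
  obtain ⟨y, hy⟩ : ∃ y, q ^ a = y + 1 := ⟨q ^ a - 1, by omega⟩
  have e1 : q ^ (a + 1) = (y + 1) * q := by rw [pow_succ, hy]
  have e2 : q ^ (a + (a + 1)) = (y + 1) * ((y + 1) * q) := by rw [pow_add, e1, hy]
  rw [e1, e2, hy, Nat.add_sub_cancel]
  nlinarith [Nat.mul_le_mul_left y hq]

theorem hh_prod_lt {q : ℕ} (hq : 2 ≤ q) (m : ℕ) :
    ∏ k ∈ Finset.range (2 * (m + 1)), hh q (k + 1) <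
      q ^ (∑ k ∈ Finset.range (2 * (m + 1)), (k + 2)) := by
  induction m with
  | zero =>
    rw [show 2 * (0 + 1) = 2 by norm_num, Finset.prod_range_succ, Finset.prod_range_one,
      Finset.sum_range_succ, Finset.sum_range_one]
    have h1 := hh_odd q 0
    have h2 := hh_even q 0
    simp only [mul_zero, zero_add] at h1 h2 ⊢
    rw [h1, h2]
    have := pair_lt hq (a := 2) (by norm_num)
    simpa using this
  | succ m ih =>
    rw [show 2 * (m + 1 + 1) = 2 * (m + 1) + 1 + 1 by ring, Finset.prod_range_succ,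
      Finset.prod_range_succ, Finset.sum_range_succ, Finset.sum_range_succ, pow_add, pow_add,
      mul_assoc, mul_assoc, ← pow_add]
    have h1 := hh_odd q (m + 1)
    have h2 := hh_even q (m + 1)
    rw [show 2 * (m + 1) + 1 + 1 = 2 * (m + 1) + 2 by ring, h2, h1]
    have h3 := pair_lt hq (a := 2 * (m + 1) + 2) (by omega)
    rw [show 2 * (m + 1) + 3 = 2 * (m + 1) + 2 + 1 by ring]
    exact Nat.mul_lt_mul'' ih h3

/-- The product of factors, for at least two factors. -/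
theorem hh_bound {q : ℕ} (hq : 2 ≤ q) {m : ℕ} (hm : 1 ≤ m) :
    ∏ k ∈ Finset.range m, hh q (k + 1) < q ^ (∑ k ∈ Finset.range m, (k + 2)) := by
  obtain ⟨t, rfl | rfl⟩ : ∃ t, m = 2 * t ∨ m = 2 * t + 1 := ⟨m / 2, by omega⟩
  · obtain ⟨s, rfl⟩ : ∃ s, t = s + 1 := ⟨t - 1, by omega⟩
    exact hh_prod_lt hq s
  · rw [Finset.prod_range_succ, Finset.sum_range_succ, pow_add, hh_odd]
    rcases Nat.eq_zero_or_pos t with rfl | ht
    · simpa using sub_one_lt hq 2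
    · obtain ⟨s, rfl⟩ : ∃ s, t = s + 1 := ⟨t - 1, by omega⟩
      exact Nat.mul_lt_mul'' (hh_prod_lt hq s) (sub_one_lt hq _)

theorem hh_nd {p q f : ℕ} (hp : p.Prime) (hf : 1 ≤ f) (hq : q = p ^ f) (m : ℕ) :
    ¬ p ∣ ∏ k ∈ Finset.range m, hh q (k + 1) := by
  intro h
  obtain ⟨j, -, hj⟩ := Prime.exists_mem_finset_dvd hp.prime h
  unfold hh at hj
  split_ifs at hj
  · exact nd_add hp hf hq (by omega) hj
  · exact nd_sub hp hf hq (by omega) hj

/-! ### The symplectic and orthogonal products -/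

theorem sp_nd {p q f : ℕ} (hp : p.Prime) (hf : 1 ≤ f) (hq : q = p ^ f) (m : ℕ) :
    ¬ p ∣ ∏ i ∈ Finset.range m, (q ^ (2 * (i + 1)) - 1) :=
  nd_prod hp hf hq (fun i => 2 * (i + 1)) (fun _ => by omega) m

theorem sp_lt {q : ℕ} (hq : 2 ≤ q) {m : ℕ} (hm : 1 ≤ m) :
    ∏ i ∈ Finset.range m, (q ^ (2 * (i + 1)) - 1) < q ^ (m * (m + 1)) := by
  have := prod_lt hq (fun i => 2 * (i + 1)) m hm
  rwa [sum_two_mul] at this

theorem sp_le {q : ℕ} (hq : 2 ≤ q) (m : ℕ) :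
    ∏ i ∈ Finset.range m, (q ^ (2 * (i + 1)) - 1) ≤ q ^ (m * (m + 1)) := by
  have := prod_le hq (fun i => 2 * (i + 1)) m
  rwa [sum_two_mul] at this

/-- The family with `|G|` as in the symplectic case. -/
theorem good_sp {p q f m d : ℕ} {X : Type*} [Group X] [Finite X] (hp : p.Prime) (hf : 1 ≤ f)
    (hq : q = p ^ f) (hm : 2 ≤ m) (hd : 0 < d) (hpd : ¬ p ∣ d)
    (h : d * Nat.card X = q ^ (m ^ 2) * ∏ i ∈ Finset.range m, (q ^ (2 * (i + 1)) - 1)) :
    Good p X :=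
  both hp hf hq hd h hpd (sp_nd hp hf hq m) (sp_lt (two_le hp hf hq) (by omega))
    (by nlinarith) (by nlinarith)

/-- The family with `|G|` as in the orthogonal plus case. -/
theorem good_plus {p q f m d : ℕ} {X : Type*} [Group X] [Finite X] (hp : p.Prime) (hf : 1 ≤ f)
    (hq : q = p ^ f) (hm : 4 ≤ m) (hd : 0 < d) (hpd : ¬ p ∣ d)
    (h : d * Nat.card X = q ^ (m * (m - 1)) * (q ^ m - 1) *
      ∏ i ∈ Finset.range (m - 1), (q ^ (2 * (i + 1)) - 1)) :
    Good p X := by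
  obtain ⟨k, rfl⟩ : ∃ k, m = k + 1 := ⟨m - 1, by omega⟩
  rw [Nat.add_sub_cancel] at h
  have hq2 := two_le hp hf hq
  rw [mul_assoc] at h
  refine both (B := (k + 1) + k * (k + 1)) hp hf hq hd h hpd
    (nd_mul hp (nd_sub hp hf hq (by omega)) (sp_nd hp hf hq k))
    (mul_lt (sub_one_lt hq2 _) (sp_lt hq2 (by omega))) ?_ ?_
  · have hk : 3 ≤ k := by omega
    nlinarith
  · have hk : 3 ≤ k := by omega
    nlinarith

/-- The family with `|G|` as in the orthogonal minus case. -/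
theorem good_minus {p q f m d : ℕ} {X : Type*} [Group X] [Finite X] (hp : p.Prime) (hf : 1 ≤ f)
    (hq : q = p ^ f) (hm : 4 ≤ m) (hd : 0 < d) (hpd : ¬ p ∣ d)
    (h : d * Nat.card X = q ^ (m * (m - 1)) * (q ^ m + 1) *
      ∏ i ∈ Finset.range (m - 1), (q ^ (2 * (i + 1)) - 1)) :
    Good p X := by
  obtain ⟨k, rfl⟩ : ∃ k, m = k + 1 := ⟨m - 1, by omega⟩
  rw [Nat.add_sub_cancel] at h
  have hq2 := two_le hp hf hq
  rw [mul_assoc] at h
  refine both (B := (k + 1 + 1) + k * (k + 1)) hp hf hq hd h hpd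
    (nd_mul hp (nd_add hp hf hq (by omega)) (sp_nd hp hf hq k))
    (mul_lt (add_one_lt hq2 (by omega)) (sp_lt hq2 (by omega))) ?_ ?_
  · have hk : 3 ≤ k := by omega
    nlinarith
  · have hk : 3 ≤ k := by omega
    nlinarith

/-- `PSL`. -/
theorem good_psl {p q f n d : ℕ} {X : Type*} [Group X] [Finite X] (hp : p.Prime) (hf : 1 ≤ f)
    (hq : q = p ^ f) (hn : 2 ≤ n) (hd : 0 < d) (hpd : ¬ p ∣ d)
    (h : d * ((q - 1) * Nat.card X) = ∏ i : Fin n, (q ^ n - q ^ (i : ℕ))) :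
    (Nat.card X).factorization p = f * (n * (n - 1) / 2) ∧
    Nat.card X < p ^ (3 * (Nat.card X).factorization p) ∧
    (3 ≤ n → Nat.card X ^ 3 < p ^ (8 * (Nat.card X).factorization p)) := by
  have hq2 := two_le hp hf hq
  obtain ⟨A, hA, rfl⟩ := psl_prod (n := n) hq2 (by omega)
  rw [hA] at h
  have h1 := psl_formula hq2 h
  obtain ⟨h2, h3⟩ := core hp hf hq hd h1 hpd (nd_prod hp hf hq (fun j => j + 2) (fun _ => by omega) _)
    (prod_lt hq2 (fun j => j + 2) (n - 1) (by omega))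
  exact ⟨h2, finish hp hq h2 h3 (psl_arith hn), fun hn3 => finish2 hp hq h2 h3 (psl_arith' hn3)⟩

/-- `PSU`. -/
theorem good_psu {p q f n d : ℕ} {X : Type*} [Group X] [Finite X] (hp : p.Prime) (hf : 1 ≤ f)
    (hq : q = p ^ f) (hn : 3 ≤ n) (hd : 0 < d) (hpd : ¬ p ∣ d)
    (h : d * ((q + 1) * Nat.card X) = q ^ (n * (n - 1) / 2) *
      ∏ i ∈ Finset.range n, (if Even i then q ^ (i + 1) + 1 else q ^ (i + 1) - 1)) :
    Good p X := by
  have hq2 := two_le hp hf hq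
  obtain ⟨m, rfl⟩ : ∃ m, n = m + 1 := ⟨n - 1, by omega⟩
  have h0 : ∏ i ∈ Finset.range (m + 1), (if Even i then q ^ (i + 1) + 1 else q ^ (i + 1) - 1) =
      (q + 1) * ∏ k ∈ Finset.range m, hh q (k + 1) := by
    rw [Finset.prod_range_succ', mul_comm]
    simp [hh]
  rw [h0] at h
  have h1 : d * Nat.card X = q ^ ((m + 1) * (m + 1 - 1) / 2) * ∏ k ∈ Finset.range m, hh q (k + 1) := by
    apply Nat.eq_of_mul_eq_mul_left (show 0 < q + 1 by omega)
    calc (q + 1) * (d * Nat.card X) = d * ((q + 1) * Nat.card X) := by ring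
      _ = _ := h
      _ = _ := by ring
  exact both hp hf hq hd h1 hpd (hh_nd hp hf hq m) (hh_bound hq2 (by omega))
    (psl_arith (by omega)) (psl_arith' hn)

end Cfsg.Agent.Lib.LieBound.Fam
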